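import Mathlib.GroupTheory.Sylow
import Mathlib.GroupTheory.Nilpotent
import Mathlib.GroupTheory.OrderOfElement
import Cfsg.Agent.Lib.Involution

/-! Small facts about centres of Sylow 2-subgroups and fixed cosets (owner helper8). -/

set_option autoImplicit false
set_option linter.unusedSectionVars false

namespace CfsgLib.TwoCentral

variable {G : Type*} [Group G] [Finite G]

theorem two_dvd_card {x : G} (hx : orderOf x = 2) : 2 ∣ Nat.card G := hx ▸ orderOf_dvd_natCard x

theorem isPGroup_zpowers {x : G} (hx : orderOf x = 2) : IsPGroup 2 ↥(Subgroup.zpowers x) :=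
  IsPGroup.of_card (n := 1) (by rw [Nat.card_zpowers, hx, pow_one])

/-- A nontrivial 2-subgroup has an involution in its centre. -/
theorem exists_central_involution {P : Subgroup G} (hP : IsPGroup 2 ↥P) (h : P ≠ ⊥) :
    ∃ z ∈ P, orderOf z = 2 ∧ ∀ x ∈ P, x * z = z * x := by
  haveI : Fact (Nat.Prime 2) := ⟨Nat.prime_two⟩
  haveI : Nontrivial ↥P := (Subgroup.nontrivial_iff_ne_bot P).mpr h
  haveI := hP.center_nontrivial
  obtain ⟨k, hk0, hk⟩ := (hP.to_subgroup (Subgroup.center ↥P)).nontrivial_iff_card.mp inferInstance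
  obtain ⟨z, hz⟩ := exists_prime_orderOf_dvd_card' (G := ↥(Subgroup.center ↥P)) 2 (hk ▸ dvd_pow_self 2 hk0.ne')
  refine ⟨(z : ↥P), (z : ↥P).2, by rw [Subgroup.orderOf_coe, Subgroup.orderOf_coe, hz], fun x hx => ?_⟩
  exact congrArg Subtype.val (Subgroup.mem_center_iff.mp z.2 ⟨x, hx⟩)

theorem sylow_ne_bot (h : 2 ∣ Nat.card G) (P : Sylow 2 G) : (P : Subgroup G) ≠ ⊥ :=
  P.ne_bot_of_dvd_card (hp := ⟨Nat.prime_two⟩) h

/-- If an involution `z` fixes only the coset `H`, every 2-subgroup containing `z` lies in `H`. -/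
theorem le_of_unique_fixed {z : G} {H T : Subgroup G} (hT : IsPGroup 2 ↥T) (hzT : z ∈ T) (hzH : z ∈ H)
    (hfix : ∀ g : G, g⁻¹ * z * g ∈ H → g ∈ H) : T ≤ H := by
  haveI : Fact (Nat.Prime 2) := ⟨Nat.prime_two⟩
  by_contra hle
  have hne : H.subgroupOf T ≠ ⊤ := fun h => hle (Subgroup.subgroupOf_eq_top.mp h)
  haveI := hT.isNilpotent
  have h := Group.normalizerCondition_of_isNilpotent (G := ↥T) (H.subgroupOf T) (lt_top_iff_ne_top.mpr hne)
  obtain ⟨t, htn, htH⟩ := Set.exists_of_ssubset h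
  have hz' := (Subgroup.mem_normalizer_iff''.mp htn ⟨z, hzT⟩).mp hzH
  exact htH (hfix (t : G) (by simpa [Subgroup.mem_subgroupOf] using hz'))

end CfsgLib.TwoCentral
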